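import Cfsg.Agent.H0.WL34.D
set_option maxRecDepth 100000
set_option Elab.async false
set_option linter.unusedSectionVars false
namespace H0.WL34
open H0 BN 
universe u
theorem stem {G : Type u} [Group G] [Finite G] (P : Pres G 13 H0.ML34.B) (hG : commutator G = ⊤) : StemTo G (Z3 3 4 4) :=
  stemTo3 P hG R J [32, 32, 0, 16, 0, 0, 0, 0, 0, 0, 0, 0, 0, 0, 0, 0, 0, 0, 0, 0, 0, 0, 0, 0, 0, 32, 0, 0, 0, 0, 0, 0, 0, 0, 0, 0, 0, 0, 0, 0, 0, 0, 16, 32, 0, 0, 0, 0, 0, 0, 0, 0, 0, 0, 0, 0, 0] [0, 0, 0, 42, 0, 39, 0, 0, 0, 45, 0, 3, 0, 15, 0, 45, 0, 0, 0, 0, 0, 18, 0, 0, 0, 0, 30, 3, 0, 3, 0, 0, 0, 0, 0, 0, 0, 0, 0, 0, 0, 0, 0, 0, 0, 0, 0, 0, 0, 0, 0, 0, 0, 0, 0, 0, 0] [0, 0, 0, 9, 0, 6, 0, 0, 0, 0, 0, 39, 0, 3, 36, 9, 0, 0, 0, 0, 0, 9, 0, 0, 0, 0, 0, 39, 3, 0, 0, 0, 0, 0, 0, 0, 0, 0, 0, 0,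 0, 0, 0, 0, 0, 0, 0, 0, 0, 0, 0, 0, 0, 0, 0, 0, 0] (all_take_done (all_take_step (all_take_zero _ E) (pw_done R (pw_step R (pw_zero R ((E.drop 0).take 108)) c1))) (by decide +kernel)) c0 (by decide +kernel) (by decide +kernel)
end H0.WL34
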